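import Cfsg.Agent.Lib.JankoThree.CentWords
import Cfsg.Prelude.Def_Classical

/-! # The triple cover of `J₃` inside `SU₉(2)` -/

set_option autoImplicit false
set_option maxRecDepth 100000

namespace Cfsg.Agent.Lib.JankoThree

open Cfsg.Spor Matrix

/-- Transposed code. -/
def trC (M : List ℕ) : List ℕ := (List.range 81).map fun n => ent2 M (n % 9) (n / 9)

/-- Code with squared entries. -/
def barC (M : List ℕ) : List ℕ := (List.range 81).map fun n => mul4 (ent2 M (n / 9) (n % 9)) (ent2 M (n / 9) (n % 9))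

theorem unitary_chk : ∀ i < 4, mm (trC (gLit i)) (barC (gLit i)) = cId ∧
    Small (trC (gLit i)) = true ∧ Small (barC (gLit i)) = true := by decide +kernel

theorem det_rel_chk : wordLit [2, 0, 0, 0, 0, 2] = wordLit [0, 0, 0, 0] ∧
    wordLit [3, 3] = cId ∧ wordLit [0, 0, 0, 0, 0, 0, 0, 0] = cId ∧
    (List.range 81).all (fun n => Nat.beq (n / 9) (n % 9) || Nat.beq (ent2 (gLit 1) (n / 9) (n % 9)) 0) = true ∧
    ((List.range 9).map fun k => ent2 (gLit 1) k k).foldr mul4 1 = 1 := by decide +kernel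

/-- The index equivalence. -/
def idxE : F9 ≃ Fin 9 where
  toFun z := ⟨idx z, idx_lt z⟩
  invFun i := unidx i
  left_inv z := unidx_idx z
  right_inv i := Fin.ext (idx_unidx i i.2)

theorem ent2_trC {M : List ℕ} {i k : ℕ} (hi : i < 9) (hk : k < 9) : ent2 (trC M) i k = ent2 M k i := by
  show (trC M).getD (9 * i + k) 0 = _
  rw [trC, List.getD_eq_getElem _ _ (by simp; omega)]
  simp only [List.getElem_map, List.getElem_range]
  rw [show (9 * i + k) / 9 = i by omega, show (9 * i + k) % 9 = k by omega]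

theorem ent2_barC {M : List ℕ} {i k : ℕ} (hi : i < 9) (hk : k < 9) :
    ent2 (barC M) i k = mul4 (ent2 M i k) (ent2 M i k) := by
  show (barC M).getD (9 * i + k) 0 = _
  rw [barC, List.getD_eq_getElem _ _ (by simp; omega)]
  simp only [List.getElem_map, List.getElem_range]
  rw [show (9 * i + k) / 9 = i by omega, show (9 * i + k) % 9 = k by omega]

variable {F : Type*} [Field F] [Fintype F] {ω : F}

/-- A matrix preserves `Σ u_z v_z²`. -/
def Unit9 (A : Matrix F9 F9 F) : Prop :=
  ∀ u v : F9 → F, ∑ z, (A *ᵥ u) z * ((A *ᵥ v) z) ^ 2 = ∑ z, u z * v z ^ 2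

theorem Setup.sq_sum (h : Setup ω) {ι : Type*} (s : Finset ι) (f : ι → F) :
    (∑ i ∈ s, f i) ^ 2 = ∑ i ∈ s, f i ^ 2 := by
  haveI := h.charTwo
  haveI : ExpChar F 2 := ExpChar.prime Nat.prime_two
  exact sum_pow_char 2 s f

theorem Setup.unit_gen (h : Setup ω) {i : ℕ} (hi : i < 4) : Unit9 (toMat ω (gLit i)) := by
  obtain ⟨e, hs1, hs2⟩ := unitary_chk i hi
  have hM := small_gLit i (by omega)
  have key : (toMat ω (gLit i))ᵀ * (toMat ω (gLit i)).map (· ^ 2) = 1 := by
    have h1 : toMat ω (trC (gLit i)) = (toMat ω (gLit i))ᵀ := by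
      ext w z
      simp only [toMat, Matrix.of_apply, Matrix.transpose_apply, ent2_trC (idx_lt w) (idx_lt z)]
    have h2 : toMat ω (barC (gLit i)) = (toMat ω (gLit i)).map (· ^ 2) := by
      ext w z
      simp only [toMat, Matrix.of_apply, Matrix.map_apply, ent2_barC (idx_lt w) (idx_lt z)]
      rw [h.phi_mul _ (ent2_lt hM _ _) _ (ent2_lt hM _ _), pow_two]
    rw [← h1, ← h2, ← h.toMat_mm hs1 hs2, e, toMat_cId]
  intro u v
  set A := toMat ω (gLit i) with hA
  have hsq : ∀ z, ((A *ᵥ v) z) ^ 2 = ((A.map (· ^ 2)) *ᵥ fun k => v k ^ 2) z := by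
    intro z
    simp only [Matrix.mulVec, dotProduct, h.sq_sum, Matrix.map_apply, mul_pow]
  show (A *ᵥ u) ⬝ᵥ (fun z => ((A *ᵥ v) z) ^ 2) = u ⬝ᵥ fun z => v z ^ 2
  rw [funext hsq, Matrix.dotProduct_mulVec, ← Matrix.mulVec_transpose, Matrix.mulVec_mulVec]
  have key' : (A.map (· ^ 2))ᵀ * A = 1 := by
    have := congrArg Matrix.transpose key
    rwa [Matrix.transpose_mul, Matrix.transpose_transpose, Matrix.transpose_one] at this
  rw [key', Matrix.one_mulVec]

theorem Setup.det_gen (h : Setup ω) {i : ℕ} (hi : i < 4) : (toMat ω (gLit i)).det = 1 := by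
  obtain ⟨e2, e3, e0, hdiag, hprod⟩ := det_rel_chk
  haveI := h.charTwo
  have hcube : ∀ x : F, x ≠ 0 → x ^ 3 = 1 := fun x hx => by
    have := FiniteField.pow_card_sub_one_eq_one x hx
    rwa [h.card] at this
  have hw : ∀ l : List ℕ, (∀ j ∈ l, j < 4) →
      (toMat ω (wordLit l)).det = (l.map fun j => (toMat ω (gLit j)).det).prod := by
    intro l hl
    induction l with
    | nil => show (toMat ω cId).det = 1; rw [toMat_cId, Matrix.det_one]
    | cons j l ih =>
      have hl' : ∀ k ∈ l, k < 4 := fun k hk => hl k (List.mem_cons_of_mem _ hk)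
      have hj := hl j List.mem_cons_self
      show (toMat ω (mm (gLit j) (wordLit l))).det = _
      rw [h.toMat_mm (small_gLit j (by omega)) (small_wordLit hl'), Matrix.det_mul, ih hl', List.map_cons,
        List.prod_cons]
  have h3 : (toMat ω (gLit 3)).det = 1 := by
    have := hw [3, 3] (by decide)
    rw [e3, toMat_cId, Matrix.det_one] at this
    simp only [List.map_cons, List.map_nil, List.prod_cons, List.prod_nil, mul_one] at this
    have h4 : ((toMat ω (gLit 3)).det + 1) * ((toMat ω (gLit 3)).det + 1) = 0 := by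
      rw [CharTwo.add_mul_self, ← this, one_mul, h.add_self]
    exact CharTwo.add_eq_zero.1 (mul_self_eq_zero.1 h4)
  have h0 : (toMat ω (gLit 0)).det = 1 := by
    have := hw [0, 0, 0, 0, 0, 0, 0, 0] (by decide)
    rw [e0, toMat_cId, Matrix.det_one] at this
    simp only [List.map_cons, List.map_nil, List.prod_cons, List.prod_nil, mul_one] at this
    set d := (toMat ω (gLit 0)).det
    have hd : d ≠ 0 := fun e => by simp [e] at this
    have h8 : d ^ 8 = 1 := by rw [this]; ring
    calc d = d * (d ^ 3) ^ 5 := by rw [hcube d hd, one_pow, mul_one]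
      _ = (d ^ 8) ^ 2 := by ring
      _ = 1 := by rw [h8, one_pow]
  have h2 : (toMat ω (gLit 2)).det = 1 := by
    have ha := hw [2, 0, 0, 0, 0, 2] (by decide)
    have hb := hw [0, 0, 0, 0] (by decide)
    rw [e2, hb] at ha
    simp only [List.map_cons, List.map_nil, List.prod_cons, List.prod_nil, mul_one, one_mul, h0] at ha
    have h4 : ((toMat ω (gLit 2)).det + 1) * ((toMat ω (gLit 2)).det + 1) = 0 := by
      rw [CharTwo.add_mul_self, ← ha, one_mul, h.add_self]
    exact CharTwo.add_eq_zero.1 (mul_self_eq_zero.1 h4)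
  have h1 : (toMat ω (gLit 1)).det = 1 := by
    simp only [List.all_eq_true, List.mem_range, Bool.or_eq_true, Nat.beq_eq] at hdiag
    have hd : toMat ω (gLit 1) = Matrix.diagonal fun z => phi ω (ent2 (gLit 1) (idx z) (idx z)) := by
      ext w z
      rcases eq_or_ne w z with rfl | hne
      · simp [toMat]
      · rw [Matrix.diagonal_apply_ne _ hne]
        have hw' := idx_lt w
        have hz' := idx_lt z
        rcases hdiag (9 * idx w + idx z) (by omega) with e | e
        · rw [show (9 * idx w + idx z) / 9 = idx w by omega, show (9 * idx w + idx z) % 9 = idx z by omega] at e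
          exact absurd (idxE.injective (Fin.ext e)) hne
        · rw [show (9 * idx w + idx z) / 9 = idx w by omega, show (9 * idx w + idx z) % 9 = idx z by omega] at e
          simp [toMat, e, phi]
    rw [hd, Matrix.det_diagonal]
    have hf : ∀ (l : List ℕ), (∀ x ∈ l, x < 4) → l.foldr mul4 1 < 4 ∧
        phi ω (l.foldr mul4 1) = (l.map (phi ω)).prod := by
      intro l hl
      induction l with
      | nil => exact ⟨by norm_num, rfl⟩
      | cons a l ih =>
        obtain ⟨i1, i2⟩ := ih fun x hx => hl x (List.mem_cons_of_mem _ hx)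
        have ha := hl a List.mem_cons_self
        exact ⟨mul4_lt _ ha _ i1, by rw [List.foldr_cons, h.phi_mul _ ha _ i1, i2, List.map_cons, List.prod_cons]⟩
    have hsmall : ∀ x ∈ (List.range 9).map (fun k => ent2 (gLit 1) k k), x < 4 := fun x hx => by
      obtain ⟨k, -, hk⟩ := List.mem_map.1 hx
      exact hk ▸ ent2_lt (small_gLit 1 (by norm_num)) k k
    have := (hf _ hsmall).2
    rw [hprod, List.map_map, show List.range 9 = [0, 1, 2, 3, 4, 5, 6, 7, 8] from rfl] at this
    simp only [List.map_cons, List.map_nil, List.prod_cons, List.prod_nil, Function.comp_apply, mul_one] at this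
    rw [← idxE.symm.prod_comp, show (1 : F) = phi ω 1 from rfl, this]
    simp only [Fin.prod_univ_succ, Fin.prod_univ_zero, mul_one]
    rfl
  interval_cases i
  exacts [h0, h1, h2, h3]

/-- The triple cover embeds in `SU₉(2)`. -/
theorem Setup.exists_su (h : Setup ω) :
    ∃ H : Subgroup (Cfsg.SU 9 F 2), Nonempty (threeJ3 F ω ≃* H) := by
  have hall : ∀ g : threeJ3 F ω, (matOf g).det = 1 ∧ Unit9 (matOf g) := fun g =>
    h.induction (P := fun A => A.det = 1 ∧ Unit9 A) ⟨Matrix.det_one, fun u v => by simp⟩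
      (fun A B hA hB => ⟨by rw [Matrix.det_mul, hA.1, hB.1, one_mul], fun u v => by
        rw [← Matrix.mulVec_mulVec, ← Matrix.mulVec_mulVec, hA.2, hB.2]⟩)
      (fun i hi => ⟨h.det_gen hi, h.unit_gen hi⟩) g.2
  let toSL : threeJ3 F ω →* Matrix.SpecialLinearGroup (Fin 9) F :=
    MonoidHom.mk' (fun g => ⟨(matOf g).submatrix idxE.symm idxE.symm, by
        rw [Matrix.det_submatrix_equiv_self]; exact (hall g).1⟩)
      fun a b => Subtype.ext (by
        show (matOf (a * b)).submatrix idxE.symm idxE.symm = _ * _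
        rw [matOf_mul, Matrix.submatrix_mul_equiv])
  have hmem : ∀ g, toSL g ∈ Cfsg.SU 9 F 2 := by
    intro g u v
    have hu := (hall g).2 (u ∘ idxE) (v ∘ idxE)
    have hmv : ∀ w : Fin 9 → F, slToMat 9 F (toSL g) *ᵥ w = fun i => (matOf g *ᵥ (w ∘ idxE)) (idxE.symm i) := by
      intro w
      show ((matOf g).submatrix idxE.symm idxE.symm) *ᵥ w = _
      rw [Matrix.submatrix_mulVec_equiv]; rfl
    show ∑ i, _ * _ ^ 2 = ∑ i, u i * v i ^ 2
    rw [hmv, hmv, idxE.symm.sum_comp (fun z => (matOf g *ᵥ (u ∘ idxE)) z * (matOf g *ᵥ (v ∘ idxE)) z ^ 2),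
      hu, ← idxE.sum_comp]
    rfl
  let f : threeJ3 F ω →* Cfsg.SU 9 F 2 := toSL.codRestrict _ hmem
  have hf : Function.Injective f := fun a b e => by
    refine matOf_inj ?_
    have h0 : (matOf a).submatrix idxE.symm idxE.symm = (matOf b).submatrix idxE.symm idxE.symm :=
      congrArg Subtype.val (congrArg Subtype.val e : toSL a = toSL b)
    have h1 := congrArg (fun A : Matrix (Fin 9) (Fin 9) F => A.submatrix idxE idxE) h0
    simpa [Matrix.submatrix_submatrix] using h1
  exact ⟨f.range, ⟨MonoidHom.ofInjective hf⟩⟩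

end Cfsg.Agent.Lib.JankoThree
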